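import Cfsg.Agent.StdZ.BmH
import Cfsg.Agent.Mon.Cert
import Cfsg.Agent.Recog.Stem

/-! A standard double cover of the Baby Monster lies in the Monster. -/

set_option autoImplicit false
set_option maxHeartbeats 400000
set_option maxRecDepth 100000

namespace CF.StdZ.Bm

open Cfsg Subgroup CF.Leech CF.Mon CF.Mon.G CF.Mon.L CF.Mon.Lab CF.Known.Mon MulAction CF.LX CF.Loc
open CF.Even Function Spor CF.MonU CF.Mon.O CF.BabU
open scoped commutatorElement Pointwise

variable {Γ G : Type*} [Group Γ] [Group G] {ρ : Gt →* Γ} {τ : Γ} {J : Γ → G} {z w s : G} {α : Lab →* G}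

theorem As.iso [Finite G] (h : As ρ τ J z w α s) : IsoM G := by
  have lq : LQ α.range w := by
    have e := L.exLab.map (f := α) fun x _ e => h.ainj (e.trans (map_one _).symm)
    rw [← MonoidHom.range_eq_map, h.ax] at e
    refine ⟨e, fun g hg => ?_, fun g hg => mem_normalizer_of_conj_mem ?_⟩
    · rcases h.cen (g := g) fun p => by rw [one_smul]; exact conj_of_comm (hg _ ⟨p, rfl⟩) with rfl | rfl
      exacts [one_mem _, e.mem]
    · rintro _ ⟨p, rfl⟩
      obtain ⟨γ, k⟩ := h.cent (mem_c1.1 hg).symm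
      exact ⟨_, (k p).symm⟩
  obtain ⟨φ, hφ⟩ := exists_hom_of_rel (A := 𝐂₁(w)) (L := Co1) (fun n c => ∃ γ, Ac α n γ ∧ QuotientGroup.mk (gOf γ) = c)
    (fun n => (h.cent (mem_c1.1 n.2).symm).elim fun γ k => ⟨_, γ, k, rfl⟩)
    (by rintro _ _ _ ⟨γ, a, rfl⟩ ⟨δ, b, rfl⟩; exact mk_eq_mk_iff.2 (h.uniq a b))
    (by rintro _ _ _ _ ⟨γ, a, rfl⟩ ⟨δ, b, rfl⟩; exact ⟨_, a.mul b, by simp⟩)
  obtain ⟨σ, R, a, b⟩ := exists_Ro lq (by rw [← Nat.card_congr (MonoidHom.ofInjective h.ainj).toEquiv, Lab.card]) φ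
    (fun c => by
      obtain ⟨g, rfl⟩ := QuotientGroup.mk_surjective c
      obtain ⟨γ, rfl⟩ := gOf_surjective g
      obtain ⟨n, k⟩ := h.all γ
      exact ⟨⟨n, mem_c1.2 (h.cw k).symm⟩, (hφ _ _).2 ⟨γ, k, rfl⟩⟩)
    fun c => (hφ _ _).trans ⟨fun ⟨γ, k, e⟩ => h.ker k (mk_eq_one_iff.1 e), fun ⟨p, e⟩ => ⟨_, e ▸ ac_q p, by simp [gOf_pauli]⟩⟩
  obtain ⟨t, O⟩ := R.exists_out certs.c ⟨J τ, by
    rw [a, b, h.tY, ← h.ax]
    exact ⟨⟨_, rfl⟩, fun e => absurd (h.ainj e) (by decide +kernel)⟩⟩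
  exact certs.equivM O

theorem cover (O : Mon.G.Out ρ τ) {X : Type*} [Group X] (c : Nat.card (center X) = 2) (p : commutator X = ⊤)
    (e : X ⧸ center X ≃* BabyMonster) : Nonempty (X ≃* AA ρ τ) := by
  obtain ⟨e'⟩ := certs.equivB O
  have := O.finite
  have := Finite.of_equiv _ e'.toEquiv
  have hi : (powMonoidHom 2 : Multiplicative (ZMod 2) →* _).range.index ≤ 2 :=
    (Nat.le_of_dvd Nat.card_pos (index_dvd_card _)).trans (by simp)
  have c' : Nat.card (center (AA ρ τ)) = 2 := O.center_A ▸ O.card_t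
  obtain ⟨a, k⟩ := Recog.stem_center p e
  obtain ⟨a', k'⟩ := Recog.stem_center O.perfect_A e'
  obtain ⟨f, -⟩ := Recog.stem_unique certs.schur_B a a' p O.perfect_A (n := 2)
    (fun x hx => congrArg Subtype.val (c ▸ pow_card_eq_one' (x := (⟨x, k.le hx⟩ : center _))))
    (fun x hx => congrArg Subtype.val (c' ▸ pow_card_eq_one' (x := (⟨x, k'.le hx⟩ : center _))))
    (hi.trans (by rw [k, c])) (hi.trans (by rw [k', c']))
  exact ⟨f⟩

theorem main [Finite G] [IsSimpleGroup G] (hG : ¬ IsMulCommutative G)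
    (bal : ∀ t : G, orderOf t = 2 → centralizerPPrimeCore 2 t = ⊥) {L : Subgroup G} (hL : IsStandardSubgroup L)
    (hZ : Nat.card (center L) = 2) (e : L ⧸ center L ≃* BabyMonster) : IsoM G := by
  classical
  obtain ⟨ρ, τ, O⟩ := certs.outM
  obtain ⟨f⟩ := cover O hZ hL.1.1.commutator_eq_top e
  have B := O.isB_quot
  have := B.1
  obtain ⟨F, fr, rfl, -⟩ := exists_fr' hL hZ ((QuotientGroup.mk' (center (AA ρ τ))).comp f.toMonoidHom)
    ((QuotientGroup.mk'_surjective _).comp f.surjective) (by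
      ext x
      simp only [MonoidHom.mem_ker, MonoidHom.comp_apply, QuotientGroup.mk'_apply, QuotientGroup.eq_one_iff,
        Subgroup.mem_center_iff]
      exact ⟨fun k y => f.injective (by simpa using k (f y)), fun k y => f.symm.injective (by simpa using k (f.symm y))⟩)
    (out_B O) (center_simple fun c => by
      letI : CommGroup (AA ρ τ ⧸ center (AA ρ τ)) := { (inferInstance : Group _) with mul_comm := c }
      have := (IsSimpleGroup.prime_card (α := AA ρ τ ⧸ center (AA ρ τ))).eq_one_or_self_of_dvd 2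
      rw [B.2] at this
      omega)
  let j := F.L.subtype.comp f.symm.toMonoidHom
  have inj : Injective j := Subtype.val_injective.comp f.symm.injective
  have rg : ∀ {x}, x ∈ F.L ↔ ∃ a, j a = x := ⟨fun k => ⟨f ⟨_, k⟩, by simp [j]⟩, fun ⟨a, k⟩ => k ▸ (f.symm a).2⟩
  have M : Mo O F j := ⟨fr, inj, rg, (fr.LK (rg.2 ⟨_, rfl⟩) (fr.memK.2 fun l hl => by
    obtain ⟨a, rfl⟩ := rg.1 hl
    exact Commute.map (show Commute a ⟨_, O.t_mem_A⟩ from Subtype.ext (O.comm_t a.2)) j)).resolve_left fun k =>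
      O.t_ne (congrArg Subtype.val (inj (k.trans (map_one j).symm)))⟩
  let J : Monster → G := fun x => if h : x ∈ AA ρ τ then j ⟨x, h⟩ else 1
  have hJ : ∀ {x} (h : x ∈ AA ρ τ), J x = j ⟨x, h⟩ := fun h => dif_pos h
  have C : Ce ρ τ J F.z (J (ρ (pauli xc))) := ⟨O, fun a ha b hb => by
      rw [hJ ha, hJ hb, hJ (mul_mem ha hb), ← map_mul]; rfl,
    fun a ha k => congrArg Subtype.val (inj ((hJ ha).symm.trans (k.trans (map_one j).symm))),
    (hJ _).trans M.jz, rfl, fun c => (M.cent hG (bal _ fr.oz) c).elim fun a k => ⟨a, a.2, (hJ a.2).trans k⟩⟩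
  obtain ⟨α, A⟩ := C.exists_al (StdZ.exists_cm fr.oz hG)
  obtain ⟨s, a, b, c⟩ := A.exists_s
  exact As.iso ⟨A, a, b, c⟩

end CF.StdZ.Bm
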