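import Cfsg.Agent.StdZ.HnC
import Cfsg.Agent.HNR.KE

/-! Checks of the centraliser trees and conjugating words in `2.HS.2`. -/

set_option autoImplicit false
set_option maxRecDepth 1000000
set_option Elab.async false

namespace CF.StdZ.Hn

open CF.Comp CF.Bt CF.HNR

theorem cA : cenκ [[9, 11], [37, 40, 17, 13]] cATF cATK cAT cAC [[21, 11, 2, 3, 1], [13, 3], [13]] cAU 8 = true := by decide +kernel
theorem cG : cenκ [[9, 11], [19, 1, 19]] cGTF cGTK cGT cGC [[15, 3], [13]] cGU 4 = true := by decide +kernel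
theorem cT : cenκ [[9, 11], [3, 5, 7, 9]] cTTF cTTK cTT cTC [[17], [15], [13]] cTU 8 = true := by decide +kernel
theorem cW : cenκ [[3], [7], [11], [2, 3, 1], [5, 7, 3, 5], [9, 11, 7, 9]] cWTF cWTK cWT cWC [[3, 7, 11], [15], [13]] cWU 8 = true := by decide +kernel
theorem kT : pcAll 2 (fun w => neκ (lapp w w) [13] || lany (fun c => eqκ (lapp c w) (lapp [17, 15] c)) tabT)
    PS.qs = true := by decide +kernel
theorem kM : pcAll 2 (fun w => neκ (wpow w 4) [13] || lany (fun c => eqκ (lapp c w) (lapp [7, 37, 9, 39, 10] c)) tabM)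
    PS.qs = true := by decide +kernel

end CF.StdZ.Hn
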